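import Mathlib
import Cfsg.Agent.Lib.Helper7.KBal

set_option autoImplicit false

namespace Cfsg.Agent.Lib.Helper7.KBal2

open Cfsg.Agent.Lib.Helper11 Cfsg.Agent.Lib.Helper1 Cfsg.Agent.Lib.Helper7.KBal

universe u

variable {G : Type u} [Group G]

/-- `D` is `A` or a hyperplane of `A`. -/
def Hyp (p : ℕ) (A D : Subgroup G) : Prop := D ≤ A ∧ D.relIndex A ≤ p

/-- The family hypotheses. -/
structure Fam (p : ℕ) (A T : Subgroup G) (τ : Subgroup G → Subgroup G) : Prop where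
  le : ∀ D D', Hyp p A D → Hyp p A D' → τ (D ⊓ D') ≤ T
  norm : ∀ D D', Hyp p A D → Hyp p A D' → A ≤ Subgroup.normalizer (τ (D ⊓ D') : Set G)
  mono : ∀ D D', Hyp p A D → Hyp p A D' → τ D ≤ τ (D ⊓ D')
  cent : ∀ D D' D'', Hyp p A D → Hyp p A D' → Hyp p A D'' →
    τ (D ⊓ D') ⊓ Subgroup.centralizer (D'' : Set G) ≤ τ D''
  le_cent : ∀ D, Hyp p A D → τ D ≤ Subgroup.centralizer (D : Set G)
  gen : T ≤ ⨆ D : {D : Subgroup G // Hyp p A D}, τ (D : Subgroup G)

variable {p : ℕ} {A T : Subgroup G} {τ : Subgroup G → Subgroup G}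

theorem Fam.le' (h : Fam p A T τ) {D : Subgroup G} (hD : Hyp p A D) : τ D ≤ T := by
  have h1 := h.le D D hD hD
  rwa [inf_idem] at h1

theorem Fam.norm' (h : Fam p A T τ) {D : Subgroup G} (hD : Hyp p A D) :
    A ≤ Subgroup.normalizer (τ D : Set G) := by
  have h1 := h.norm D D hD hD
  rwa [inf_idem] at h1

theorem Fam.cent' (h : Fam p A T τ) {D D'' : Subgroup G} (hD : Hyp p A D) (hD'' : Hyp p A D'') :
    τ D ⊓ Subgroup.centralizer (D'' : Set G) ≤ τ D'' := by
  have h1 := h.cent D D D'' hD hD hD''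
  rwa [inf_idem] at h1

theorem Fam.restrict (h : Fam p A T τ) {N : Subgroup G}
    (hAN : A ≤ Subgroup.normalizer (N : Set G))
    (hgen : N ≤ ⨆ D : {D : Subgroup G // Hyp p A D}, N ⊓ τ (D : Subgroup G)) :
    Fam p A N (fun B => N ⊓ τ B) where
  le := fun D D' _ _ => inf_le_left
  norm := fun D D' hD hD' =>
    (le_inf hAN (h.norm D D' hD hD')).trans Subgroup.inf_normalizer_le_normalizer_inf
  mono := fun D D' hD hD' => inf_le_inf_left _ (h.mono D D' hD hD')
  cent := fun D D' D'' hD hD' hD'' => by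
    refine le_inf (inf_le_left.trans inf_le_left) ?_
    exact (inf_le_inf_right _ inf_le_right).trans (h.cent D D' D'' hD hD' hD'')
  le_cent := fun D hD => inf_le_right.trans (h.le_cent D hD)
  gen := hgen

/-- The subgroup generated by the `N ∩ τ D` is normalized by `T`. -/
theorem normalizer_gen [Finite G] [Fact p.Prime] (hA : Cfsg.IsElementaryAbelian p A)
    (hT : ¬ p ∣ Nat.card T) (h : Fam p A T τ) {N : Subgroup G} (hNT : N ≤ T)
    (hTN : T ≤ Subgroup.normalizer (N : Set G)) (hAN : A ≤ Subgroup.normalizer (N : Set G)) :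
    T ≤ Subgroup.normalizer
      ((⨆ D : {D : Subgroup G // Hyp p A D}, N ⊓ τ (D : Subgroup G) : Subgroup G) : Set G) := by
  refine h.gen.trans (iSup_le fun D' => ?_)
  obtain ⟨D', hD'⟩ := D'
  apply le_normalizer_of_map_conj_le
  intro t ht
  rw [Subgroup.map_iSup]
  refine iSup_le fun D => ?_
  obtain ⟨D, hD⟩ := D
  rintro _ ⟨x, hx, rfl⟩
  have hx1 : x ∈ N := hx.1
  have hx2 : x ∈ τ D := hx.2
  have htT : t ∈ T := h.le' hD' ht
  have h1 : t * x * t⁻¹ ∈ N := (Subgroup.mem_normalizer_iff.mp (hTN htT) x).mp hx1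
  have h2 : t ∈ τ (D ⊓ D') := by
    have := h.mono D' D hD' hD ht
    rwa [inf_comm] at this
  have h3 : x ∈ τ (D ⊓ D') := h.mono D D' hD hD' hx2
  have h4 : t * x * t⁻¹ ∈ τ (D ⊓ D') :=
    Subgroup.mul_mem _ (Subgroup.mul_mem _ h2 h3) (Subgroup.inv_mem _ h2)
  obtain ⟨Y, hYdef⟩ : ∃ Y : Subgroup G, Y = N ⊓ τ (D ⊓ D') := ⟨_, rfl⟩
  have hYT : Y ≤ T := hYdef ▸ inf_le_left.trans hNT
  have hYp : ¬ p ∣ Nat.card Y := fun hdvd => hT (hdvd.trans (Subgroup.card_dvd_of_le hYT))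
  have hAY : A ≤ Subgroup.normalizer (Y : Set G) := by
    rw [hYdef]
    exact (le_inf hAN (h.norm D D' hD hD')).trans Subgroup.inf_normalizer_le_normalizer_inf
  have hgen := hypGen_main p _ G A Y hA hYp hAY le_rfl
  have hmem : t * x * t⁻¹ ∈ Y := hYdef ▸ ⟨h1, h4⟩
  refine (hgen.trans ?_) hmem
  unfold hypGen
  refine iSup_le fun D'' => ?_
  obtain ⟨D'', hD''⟩ := D''
  refine le_trans ?_ (le_iSup (fun D : {D : Subgroup G // Hyp p A D} => N ⊓ τ (D : Subgroup G))
    ⟨D'', hD''⟩)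
  rw [hYdef]
  refine le_inf (inf_le_left.trans inf_le_left) ?_
  exact (inf_le_inf_right _ inf_le_right).trans (h.cent D D' D'' hD hD' hD'')

theorem normalizer_gen_A (h : Fam p A T τ) {N : Subgroup G}
    (hAN : A ≤ Subgroup.normalizer (N : Set G)) :
    A ≤ Subgroup.normalizer
      ((⨆ D : {D : Subgroup G // Hyp p A D}, N ⊓ τ (D : Subgroup G) : Subgroup G) : Set G) := by
  refine le_trans ?_ (Subgroup.iInf_normalizer_le_normalizer_iSup _)
  refine le_iInf fun D => ?_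
  exact (le_inf hAN (h.norm' D.2)).trans Subgroup.inf_normalizer_le_normalizer_inf

/-- `[T, A]` is generated by its intersections with the `τ D`. -/
theorem commutator_le_gen [Finite G] [Fact p.Prime] (hA : Cfsg.IsElementaryAbelian p A)
    (hT : ¬ p ∣ Nat.card T) (hAT : A ≤ Subgroup.normalizer (T : Set G)) (h : Fam p A T τ) :
    ⁅T, A⁆ ≤ ⨆ D : {D : Subgroup G // Hyp p A D}, ⁅T, A⁆ ⊓ τ (D : Subgroup G) := by
  have hLT : ⁅T, A⁆ ≤ T := commutator_le_of_le_normalizer hAT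
  have hTL : T ≤ Subgroup.normalizer ((⁅T, A⁆ : Subgroup G) : Set G) :=
    le_sup_left.trans (commutator_normalizer hAT)
  have hAL : A ≤ Subgroup.normalizer ((⁅T, A⁆ : Subgroup G) : Set G) :=
    le_sup_right.trans (commutator_normalizer hAT)
  have hN := normalizer_gen hA hT h hLT hTL hAL
  obtain ⟨L', hL'def⟩ : ∃ L' : Subgroup G,
      L' = ⨆ D : {D : Subgroup G // Hyp p A D}, ⁅T, A⁆ ⊓ τ (D : Subgroup G) := ⟨_, rfl⟩
  rw [← hL'def] at hN ⊢
  have key : ∀ t ∈ (⨆ D : {D : Subgroup G // Hyp p A D}, τ (D : Subgroup G)),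
      t ∈ Subgroup.normalizer (L' : Set G) ∧ ∀ a ∈ A, t * a * t⁻¹ * a⁻¹ ∈ L' := by
    intro t ht
    refine Subgroup.iSup_induction (fun D : {D : Subgroup G // Hyp p A D} => τ (D : Subgroup G))
      (C := fun t => t ∈ Subgroup.normalizer (L' : Set G) ∧ ∀ a ∈ A, t * a * t⁻¹ * a⁻¹ ∈ L')
      ht ?_ ?_ ?_
    · intro D x hx
      obtain ⟨D, hD⟩ := D
      have hxT : x ∈ T := h.le' hD hx
      refine ⟨hN hxT, fun a ha => ?_⟩
      have h1 : x * a * x⁻¹ * a⁻¹ ∈ ⁅T, A⁆ := by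
        have := Subgroup.commutator_mem_commutator hxT ha
        rwa [commutatorElement_def] at this
      have h2 : x * a * x⁻¹ * a⁻¹ ∈ τ D := by
        have h3 : a * x⁻¹ * a⁻¹ ∈ τ D :=
          (Subgroup.mem_normalizer_iff.mp (h.norm' hD ha) x⁻¹).mp (Subgroup.inv_mem _ hx)
        have h4 : x * a * x⁻¹ * a⁻¹ = x * (a * x⁻¹ * a⁻¹) := by group
        rw [h4]
        exact Subgroup.mul_mem _ hx h3
      rw [hL'def]
      exact (le_iSup (fun D : {D : Subgroup G // Hyp p A D} => ⁅T, A⁆ ⊓ τ (D : Subgroup G))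
        ⟨D, hD⟩) ⟨h1, h2⟩
    · refine ⟨Subgroup.one_mem _, fun a _ => ?_⟩
      have : (1 : G) * a * (1 : G)⁻¹ * a⁻¹ = 1 := by group
      rw [this]
      exact Subgroup.one_mem _
    · intro x y hx hy
      refine ⟨Subgroup.mul_mem _ hx.1 hy.1, fun a ha => ?_⟩
      have h4 : x * y * a * (x * y)⁻¹ * a⁻¹ = x * (y * a * y⁻¹ * a⁻¹) * x⁻¹ * (x * a * x⁻¹ * a⁻¹) := by
        group
      rw [h4]
      exact Subgroup.mul_mem _ ((Subgroup.mem_normalizer_iff.mp hx.1 _).mp (hy.2 a ha)) (hx.2 a ha)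
  rw [Subgroup.commutator_le]
  intro t ht a ha
  rw [commutatorElement_def]
  exact (key t (h.gen ht)).2 a ha

theorem le_relIndex_of_lt [Finite G] [Fact p.Prime] (hA : Cfsg.IsElementaryAbelian p A)
    {H K : Subgroup G} (hHK : H < K) (hK : K ≤ A) : p ≤ H.relIndex K := by
  have hp := (Fact.out : p.Prime)
  obtain ⟨m, hm⟩ := (IsPGroup.iff_card).mp (elemAb_isPGroup hA hK)
  have h1 : H.relIndex K ∣ p ^ m := hm ▸ Subgroup.relIndex_dvd_card H K
  obtain ⟨c, -, hc⟩ := (Nat.dvd_prime_pow hp).mp h1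
  have hc0 : c ≠ 0 := by
    rintro rfl
    rw [pow_zero, Subgroup.relIndex_eq_one] at hc
    exact absurd hc (not_le_of_gt hHK)
  rw [hc]
  exact Nat.le_self_pow hc0 p

theorem top_le_of_hyp [Finite G] [Fact p.Prime] (hA : Cfsg.IsElementaryAbelian p A)
    {H K : Subgroup G} (hH : Hyp p A H) (hHK : H < K) (hK : K ≤ A) : A ≤ K := by
  have hp := (Fact.out : p.Prime)
  have h1 := Subgroup.relIndex_mul_relIndex H K A hHK.le hK
  have h2 := le_relIndex_of_lt hA hHK hK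
  have h3 : 0 < K.relIndex A :=
    Nat.pos_of_dvd_of_pos (Subgroup.relIndex_dvd_card K A) Nat.card_pos
  rw [← Subgroup.relIndex_eq_one]
  have h4 : p * K.relIndex A ≤ p := by
    calc p * K.relIndex A ≤ H.relIndex K * K.relIndex A := Nat.mul_le_mul_right _ h2
      _ = H.relIndex A := h1
      _ ≤ p := hH.2
  have h5 : K.relIndex A ≤ 1 := by
    by_contra hcon
    push Not at hcon
    nlinarith [hp.pos]
  omega

/-- preimage in `T` of the centralizer of `D` in `T/M` -/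
def qc (T M D : Subgroup G) (hTM : T ≤ Subgroup.normalizer (M : Set G)) : Subgroup G where
  carrier := {t | t ∈ T ∧ ∀ d ∈ D, t * d * t⁻¹ * d⁻¹ ∈ M}
  one_mem' := ⟨T.one_mem, fun d _ => by
    have : (1 : G) * d * (1 : G)⁻¹ * d⁻¹ = 1 := by group
    rw [this]; exact M.one_mem⟩
  mul_mem' := by
    rintro t s ⟨ht, ht'⟩ ⟨hs, hs'⟩
    refine ⟨T.mul_mem ht hs, fun d hd => ?_⟩
    have h4 : t * s * d * (t * s)⁻¹ * d⁻¹ =
        t * (s * d * s⁻¹ * d⁻¹) * t⁻¹ * (t * d * t⁻¹ * d⁻¹) := by group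
    rw [h4]
    exact M.mul_mem ((Subgroup.mem_normalizer_iff.mp (hTM ht) _).mp (hs' d hd)) (ht' d hd)
  inv_mem' := by
    rintro t ⟨ht, ht'⟩
    refine ⟨T.inv_mem ht, fun d hd => ?_⟩
    have h4 : t⁻¹ * d * t⁻¹⁻¹ * d⁻¹ = t⁻¹ * (t * d * t⁻¹ * d⁻¹)⁻¹ * t⁻¹⁻¹ := by group
    rw [h4]
    exact (Subgroup.mem_normalizer_iff.mp (hTM (T.inv_mem ht)) _).mp (M.inv_mem (ht' d hd))

theorem qc_le (T M D : Subgroup G) (hTM : T ≤ Subgroup.normalizer (M : Set G)) :
    qc T M D hTM ≤ T := fun _ h => h.1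

theorem le_qc {M D : Subgroup G} (hTM : T ≤ Subgroup.normalizer (M : Set G)) (hMT : M ≤ T)
    (hDA : D ≤ A) (hAM : A ≤ Subgroup.normalizer (M : Set G)) : M ≤ qc T M D hTM := by
  intro m hm
  refine ⟨hMT hm, fun d hd => ?_⟩
  have h1 : d * m⁻¹ * d⁻¹ ∈ M :=
    (Subgroup.mem_normalizer_iff.mp (hAM (hDA hd)) _).mp (M.inv_mem hm)
  have h2 : m * d * m⁻¹ * d⁻¹ = m * (d * m⁻¹ * d⁻¹) := by group
  rw [h2]
  exact M.mul_mem hm h1

theorem cent_le_qc {M D : Subgroup G} (hTM : T ≤ Subgroup.normalizer (M : Set G)) :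
    T ⊓ Subgroup.centralizer (D : Set G) ≤ qc T M D hTM := by
  rintro t ⟨ht, htC⟩
  refine ⟨ht, fun d hd => ?_⟩
  have h1 : d * t = t * d := (Subgroup.mem_centralizer_iff.mp htC) d hd
  have h2 : t * d * t⁻¹ * d⁻¹ = 1 := by
    rw [← h1]; group
  rw [h2]
  exact M.one_mem

theorem qc_normalizer {M D : Subgroup G} (hA : Cfsg.IsElementaryAbelian p A)
    (hTM : T ≤ Subgroup.normalizer (M : Set G)) (hAT : A ≤ Subgroup.normalizer (T : Set G))
    (hAM : A ≤ Subgroup.normalizer (M : Set G)) (hDA : D ≤ A) :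
    A ≤ Subgroup.normalizer (qc T M D hTM : Set G) := by
  rw [Subgroup.le_normalizer_iff]
  intro a ha t ht
  refine ⟨(Subgroup.mem_normalizer_iff.mp (hAT ha) _).mp ht.1, fun d hd => ?_⟩
  have hcomm : a * d = d * a := elemAb_comm hA ha (hDA hd)
  have e1 : a⁻¹ * d * a = d := by rw [mul_assoc, ← hcomm, inv_mul_cancel_left]
  have e2 : a⁻¹ * d⁻¹ = d⁻¹ * a⁻¹ := by rw [← mul_inv_rev, ← mul_inv_rev, hcomm]
  have h1 : a * t * a⁻¹ * d * (a * t * a⁻¹)⁻¹ * d⁻¹ = a * t * (a⁻¹ * d * a) * t⁻¹ * (a⁻¹ * d⁻¹) := by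
    group
  have h2 : a * t * d * t⁻¹ * (d⁻¹ * a⁻¹) = a * (t * d * t⁻¹ * d⁻¹) * a⁻¹ := by group
  rw [h1, e1, e2, h2]
  exact (Subgroup.mem_normalizer_iff.mp (hAM ha) _).mp (ht.2 d hd)

/-- the elements of `A` centralizing `T/M` -/
def ac (T M A : Subgroup G) (hAM : A ≤ Subgroup.normalizer (M : Set G)) : Subgroup G where
  carrier := {a | a ∈ A ∧ ∀ t ∈ T, t * a * t⁻¹ * a⁻¹ ∈ M}
  one_mem' := ⟨A.one_mem, fun t _ => by
    have : t * (1 : G) * t⁻¹ * (1 : G)⁻¹ = 1 := by group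
    rw [this]; exact M.one_mem⟩
  mul_mem' := by
    rintro a b ⟨ha, ha'⟩ ⟨hb, hb'⟩
    refine ⟨A.mul_mem ha hb, fun t ht => ?_⟩
    have h4 : t * (a * b) * t⁻¹ * (a * b)⁻¹ =
        (t * a * t⁻¹ * a⁻¹) * (a * (t * b * t⁻¹ * b⁻¹) * a⁻¹) := by group
    rw [h4]
    exact M.mul_mem (ha' t ht) ((Subgroup.mem_normalizer_iff.mp (hAM ha) _).mp (hb' t ht))
  inv_mem' := by
    rintro a ⟨ha, ha'⟩
    refine ⟨A.inv_mem ha, fun t ht => ?_⟩
    have h4 : t * a⁻¹ * t⁻¹ * a⁻¹⁻¹ = a⁻¹ * (t * a * t⁻¹ * a⁻¹)⁻¹ * a⁻¹⁻¹ := by group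
    rw [h4]
    exact (Subgroup.mem_normalizer_iff.mp (hAM (A.inv_mem ha)) _).mp (M.inv_mem (ha' t ht))

/-- The abstract induction: under the family hypotheses, `C_T(D) ≤ τ D` for every hyperplane. -/
theorem main [Finite G] [Fact p.Prime] (hA : Cfsg.IsElementaryAbelian p A) :
    ∀ (n : ℕ) (T : Subgroup G) (τ : Subgroup G → Subgroup G), Nat.card T ≤ n →
      Group.IsSolvable T → ¬ p ∣ Nat.card T → A ≤ Subgroup.normalizer (T : Set G) →
      Fam p A T τ → ∀ D, Hyp p A D → T ⊓ Subgroup.centralizer (D : Set G) ≤ τ D := by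
  have hp := (Fact.out : p.Prime)
  intro n
  induction n using Nat.strong_induction_on with
  | _ n ih =>
  intro T τ hn hsol hT hAT h
  have hsolA : Group.IsSolvable A := elemAb_solvable hA le_rfl
  have hLT : ⁅T, A⁆ ≤ T := commutator_le_of_le_normalizer hAT
  have hTL : T ≤ Subgroup.normalizer ((⁅T, A⁆ : Subgroup G) : Set G) :=
    le_sup_left.trans (commutator_normalizer hAT)
  have hAL : A ≤ Subgroup.normalizer ((⁅T, A⁆ : Subgroup G) : Set G) :=
    le_sup_right.trans (commutator_normalizer hAT)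
  by_cases hLeq : ⁅T, A⁆ = T
  · by_cases hTbot : T = ⊥
    · intro D hD
      rw [hTbot]
      exact inf_le_left.trans bot_le
    haveI := hsol
    have hder : ⁅T, T⁆ < T := commutator_lt_of_solvable hTbot
    have hAder : A ≤ Subgroup.normalizer ((⁅T, T⁆ : Subgroup G) : Set G) := by
      apply le_normalizer_of_map_conj_le
      intro g hg
      rw [Subgroup.map_commutator, map_conj_eq_of_mem_normalizer (hAT hg)]
    obtain ⟨M, hMS, hmax⟩ := (wellFounded_gt (α := Subgroup G)).has_min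
      {M : Subgroup G | ⁅T, T⁆ ≤ M ∧ M < T ∧ A ≤ Subgroup.normalizer (M : Set G)}
      ⟨⁅T, T⁆, le_rfl, hder, hAder⟩
    obtain ⟨hderM, hMT, hAM⟩ := hMS
    have hTM : T ≤ Subgroup.normalizer (M : Set G) := by
      rw [Subgroup.le_normalizer_iff]
      intro t ht m hm
      have h1 : t * m * t⁻¹ * m⁻¹ ∈ ⁅T, T⁆ := by
        have := Subgroup.commutator_mem_commutator ht (hMT.le hm)
        rwa [commutatorElement_def] at this
      have h2 : t * m * t⁻¹ = (t * m * t⁻¹ * m⁻¹) * m := by group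
      rw [h2]
      exact M.mul_mem (hderM h1) hm
    have hdich : ∀ D : Subgroup G, D ≤ A → qc T M D hTM = T ∨ qc T M D hTM = M := by
      intro D hDA
      by_cases hq : qc T M D hTM = T
      · exact Or.inl hq
      · right
        have hqT : qc T M D hTM ≤ T := qc_le T M D hTM
        have hMq : M ≤ qc T M D hTM := le_qc hTM hMT.le hDA hAM
        by_contra hne
        exact hmax (qc T M D hTM)
          ⟨hderM.trans hMq, lt_of_le_of_ne hqT hq, qc_normalizer hA hTM hAT hAM hDA⟩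
          (lt_of_le_of_ne hMq (Ne.symm hne))
    have hex : ∃ D0, Hyp p A D0 ∧ qc T M D0 hTM = T := by
      by_contra hcon
      push Not at hcon
      have h1 : T ≤ M := by
        refine h.gen.trans (iSup_le fun D => ?_)
        have h2 := (hdich D.1 D.2.1).resolve_left (hcon D.1 D.2)
        exact (le_inf (h.le' D.2) (h.le_cent D.1 D.2)).trans ((cent_le_qc hTM).trans h2.le)
      exact absurd h1 (not_le_of_gt hMT)
    obtain ⟨D0, hD0, hqD0⟩ := hex
    have hqA : qc T M A hTM ≠ T := by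
      intro hq
      have h1 : ⁅T, A⁆ ≤ M := by
        rw [Subgroup.commutator_le]
        intro t ht a ha
        rw [commutatorElement_def]
        have h2 : t ∈ qc T M A hTM := by rw [hq]; exact ht
        exact h2.2 a ha
      rw [hLeq] at h1
      exact absurd h1 (not_le_of_gt hMT)
    have hother : ∀ D, Hyp p A D → D ≠ D0 → qc T M D hTM = M := by
      intro D hD hne
      refine (hdich D hD.1).resolve_left fun hq => ?_
      have hDac : D ≤ ac T M A hAM := fun d hd =>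
        ⟨hD.1 hd, fun t ht => (show t ∈ qc T M D hTM by rw [hq]; exact ht).2 d hd⟩
      have hD0ac : D0 ≤ ac T M A hAM := fun d hd =>
        ⟨hD0.1 hd, fun t ht => (show t ∈ qc T M D0 hTM by rw [hqD0]; exact ht).2 d hd⟩
      have hAle : A ≤ D ⊔ D0 := by
        by_cases hle : D ≤ D0
        · exact (top_le_of_hyp hA hD (lt_of_le_of_ne hle hne) hD0.1).trans le_sup_right
        · have hlt : D0 < D ⊔ D0 := by
            refine lt_of_le_of_ne le_sup_right (fun heq => hle ?_)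
            rw [heq]
            exact le_sup_left
          exact top_le_of_hyp hA hD0 hlt (sup_le hD.1 hD0.1)
      apply hqA
      apply le_antisymm (qc_le T M A hTM)
      intro t ht
      exact ⟨ht, fun a ha => ((sup_le hDac hD0ac) (hAle ha)).2 t ht⟩
    obtain ⟨M', hM'def⟩ : ∃ M' : Subgroup G,
        M' = ⨆ D : {D : Subgroup G // Hyp p A D}, M ⊓ τ (D : Subgroup G) := ⟨_, rfl⟩
    have hTM' : T ≤ Subgroup.normalizer (M' : Set G) := by
      rw [hM'def]
      exact normalizer_gen hA hT h hMT.le hTM hAM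
    have hM'M : M' ≤ M := by
      rw [hM'def]
      exact iSup_le fun D => inf_le_left
    have hτM : ∀ D, Hyp p A D → D ≠ D0 → τ D ≤ M' := by
      intro D hD hne
      have h1 : τ D ≤ M := (le_inf (h.le' hD) (h.le_cent D hD)).trans
        ((cent_le_qc hTM).trans (hother D hD hne).le)
      rw [hM'def]
      exact le_trans (le_inf h1 le_rfl)
        (le_iSup (fun D : {D : Subgroup G // Hyp p A D} => M ⊓ τ (D : Subgroup G)) ⟨D, hD⟩)
    have hTle : T ≤ τ D0 ⊔ M' := by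
      refine h.gen.trans (iSup_le fun D => ?_)
      by_cases hD : D.1 = D0
      · rw [hD]; exact le_sup_left
      · exact (hτM D.1 D.2 hD).trans le_sup_right
    have hτN : τ D0 ≤ Subgroup.normalizer (M' : Set G) := (h.le' hD0).trans hTM'
    have hMM' : M ≤ M' := by
      intro m hm
      have hm' : m ∈ ((τ D0 ⊔ M' : Subgroup G) : Set G) := hTle (hMT.le hm)
      rw [Subgroup.coe_mul_of_left_le_normalizer_right _ _ hτN] at hm'
      obtain ⟨t, ht, m', hm'', rfl⟩ := hm'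
      have htM : t ∈ M := by
        have := M.mul_mem hm (M.inv_mem (hM'M hm''))
        simpa using this
      have htM' : t ∈ M' := by
        rw [hM'def]
        exact (le_iSup (fun D : {D : Subgroup G // Hyp p A D} => M ⊓ τ (D : Subgroup G))
          ⟨D0, hD0⟩) ⟨htM, ht⟩
      exact M'.mul_mem htM' hm''
    have hFamM := h.restrict hAM (hM'def ▸ hMM')
    have hsolM : Group.IsSolvable M := isSolvable_of_le hMT.le
    have hMp : ¬ p ∣ Nat.card M := fun hd => hT (hd.trans (Subgroup.card_dvd_of_le hMT.le))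
    have IH := ih _ (lt_of_lt_of_le (card_lt_of_lt hMT) hn) M _ le_rfl hsolM hMp hAM hFamM
    intro D hD x hx
    by_cases hDD0 : D = D0
    · rw [hDD0] at hx ⊢
      have hx' : x ∈ ((τ D0 ⊔ M' : Subgroup G) : Set G) := hTle hx.1
      rw [Subgroup.coe_mul_of_left_le_normalizer_right _ _ hτN] at hx'
      obtain ⟨t, ht, m, hm, rfl⟩ := hx'
      have htC := h.le_cent D0 hD0 ht
      have hmC : m ∈ Subgroup.centralizer (D0 : Set G) := by
        have := Subgroup.mul_mem _ (Subgroup.inv_mem _ htC) hx.2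
        simpa using this
      have hm2 : m ∈ M ⊓ τ D0 := IH D0 hD0 ⟨hM'M hm, hmC⟩
      exact Subgroup.mul_mem _ ht hm2.2
    · have h1 : x ∈ M := by
        have h2 := cent_le_qc (M := M) (D := D) hTM hx
        rwa [hother D hD hDD0] at h2
      have h3 : x ∈ M ⊓ τ D := IH D hD ⟨h1, hx.2⟩
      exact h3.2
  · have hLlt : ⁅T, A⁆ < T := lt_of_le_of_ne hLT hLeq
    have hcard : Nat.card (⁅T, A⁆ : Subgroup G) < Nat.card T := card_lt_of_lt hLlt
    have hLgen := commutator_le_gen hA hT hAT h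
    have hFamL := h.restrict hAL hLgen
    haveI := hsol
    have hsolL : Group.IsSolvable (⁅T, A⁆ : Subgroup G) := isSolvable_of_le hLT
    have hLp : ¬ p ∣ Nat.card (⁅T, A⁆ : Subgroup G) :=
      fun hd => hT (hd.trans (Subgroup.card_dvd_of_le hLT))
    have IH := ih _ (lt_of_lt_of_le hcard hn) ⁅T, A⁆ _ le_rfl hsolL hLp hAL hFamL
    obtain ⟨T1, hT1def⟩ : ∃ T1 : Subgroup G,
        T1 = ⨅ D : {D : Subgroup G // Hyp p A D}, τ (D : Subgroup G) := ⟨_, rfl⟩
    have hT1le : ∀ D, Hyp p A D → T1 ≤ τ D := by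
      intro D hD
      rw [hT1def]
      exact iInf_le (fun D : {D : Subgroup G // Hyp p A D} => τ (D : Subgroup G)) ⟨D, hD⟩
    have hτle : ∀ D, Hyp p A D → τ D ≤ T1 ⊔ ⁅T, A⁆ := by
      intro D hD
      have hτp : ¬ p ∣ Nat.card (τ D) :=
        fun hd => hT (hd.trans (Subgroup.card_dvd_of_le (h.le' hD)))
      have h1 := coprime_commutator_sup A (τ D) (h.norm' hD) (elemAb_coprime hA le_rfl hτp)
        (Or.inl hsolA)
      have h2 : ⁅τ D, A⁆ ≤ T1 ⊔ ⁅T, A⁆ :=
        (Subgroup.commutator_mono (h.le' hD) le_rfl).trans le_sup_right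
      have h3 : τ D ⊓ Subgroup.centralizer (A : Set G) ≤ T1 ⊔ ⁅T, A⁆ := by
        refine le_trans ?_ le_sup_left
        rw [hT1def]
        refine le_iInf fun D'' => ?_
        exact (inf_le_inf_left _ (Subgroup.centralizer_le
          (SetLike.coe_subset_coe.mpr D''.2.1))).trans (h.cent' hD D''.2)
      calc τ D = ⁅τ D, A⁆ ⊔ (τ D ⊓ Subgroup.centralizer (A : Set G)) := h1.symm
        _ ≤ T1 ⊔ ⁅T, A⁆ := sup_le h2 h3
    have hTle : T ≤ T1 ⊔ ⁅T, A⁆ := h.gen.trans (iSup_le fun D => hτle D.1 D.2)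
    intro D hD x hx
    have hT1N : T1 ≤ Subgroup.normalizer ((⁅T, A⁆ : Subgroup G) : Set G) :=
      (hT1le D hD).trans ((h.le' hD).trans hTL)
    have hx' : x ∈ ((T1 ⊔ ⁅T, A⁆ : Subgroup G) : Set G) := hTle hx.1
    rw [Subgroup.coe_mul_of_left_le_normalizer_right T1 _ hT1N] at hx'
    obtain ⟨t, ht, l, hl, rfl⟩ := hx'
    have htD : t ∈ τ D := hT1le D hD ht
    have htC : t ∈ Subgroup.centralizer (D : Set G) := h.le_cent D hD htD
    have hlC : l ∈ Subgroup.centralizer (D : Set G) := by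
      have := Subgroup.mul_mem _ (Subgroup.inv_mem _ htC) hx.2
      simpa using this
    have hl2 : l ∈ ⁅T, A⁆ ⊓ τ D := IH D hD ⟨hl, hlC⟩
    exact Subgroup.mul_mem _ htD hl2.2

end Cfsg.Agent.Lib.Helper7.KBal2
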