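import Mathlib
import Cfsg.Prelude.Def_Characters
import Cfsg.Agent.Lib.Helper2.CharIntegral
import Cfsg.Agent.Lib.Helper2.CharMore
import Cfsg.Agent.Lib.Helper2.CharLinear

/-!
Counting lemmas for the permutation character of a transitive action, written with indicator
sums over the group, and an integrality statement for sums of a character over the set of
group elements moving a point into a union of suborbits.
-/

set_option autoImplicit false

namespace Cfsg.Agent.Lib.Helper7.PermChar

open Cfsg Cfsg.Agent.Lib.Helper2 Module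
open scoped ComplexConjugate

section lin

variable {W : Type*} [AddCommGroup W] [Module ℂ W] [FiniteDimensional ℂ W]

/-- The trace of an endomorphism that is integral over the integers is an algebraic integer. -/
theorem trace_isIntegral (T : End ℂ W) (hT : IsIntegral ℤ T) :
    IsIntegral ℤ (LinearMap.trace ℂ W T) := by
  rw [Module.End.trace_eq_sum_roots_charpoly_of_splits (IsAlgClosed.splits _)]
  apply IsIntegral.multiset_sum
  intro μ hμ
  have hroot : T.charpoly.IsRoot μ := (Polynomial.mem_roots'.mp hμ).2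
  have hev : T.HasEigenvalue μ := (Module.End.hasEigenvalue_iff_isRoot_charpoly T μ).mpr hroot
  obtain ⟨v, hv⟩ := hev.exists_hasEigenvector
  obtain ⟨p, hp, hp0⟩ := hT
  refine ⟨p, hp, ?_⟩
  have h1 : Polynomial.aeval T (p.map (algebraMap ℤ ℂ)) = 0 := by
    rw [Polynomial.aeval_map_algebraMap, Polynomial.aeval_def]
    exact hp0
  have h2 := Module.End.aeval_apply_of_hasEigenvector (p := p.map (algebraMap ℤ ℂ)) hv
  rw [h1, LinearMap.zero_apply] at h2
  have h3 : (p.map (algebraMap ℤ ℂ)).eval μ = 0 := by
    rcases smul_eq_zero.mp h2.symm with h | h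
    · exact h
    · exact absurd h hv.2
  rw [Polynomial.eval_map] at h3
  exact h3

/-- If `P` is idempotent, `M` is integral and `P M P = P M`, then the trace of `P M` is an
algebraic integer. -/
theorem trace_proj_mul_isIntegral (P M : End ℂ W) (hP : P * P = P) (hPM : P * M * P = P * M)
    (hM : IsIntegral ℤ M) : IsIntegral ℤ (LinearMap.trace ℂ W (P * M)) := by
  apply trace_isIntegral
  obtain ⟨p, hp, hp0⟩ := hM
  have hPMj : ∀ j : ℕ, P * M ^ j * P = P * M ^ j := by
    intro j
    induction j with
    | zero => rw [pow_zero, mul_one, hP]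
    | succ j ih =>
      calc P * M ^ (j + 1) * P = (P * M ^ j) * M * P := by rw [pow_succ]; noncomm_ring
        _ = (P * M ^ j * P) * M * P := by rw [ih]
        _ = P * M ^ j * (P * M * P) := by noncomm_ring
        _ = (P * M ^ j * P) * M := by rw [hPM]; noncomm_ring
        _ = P * M ^ (j + 1) := by rw [ih, pow_succ]; noncomm_ring
  have hpow : ∀ j : ℕ, (P * M) ^ (j + 1) = P * M ^ (j + 1) := by
    intro j
    induction j with
    | zero => rw [zero_add, pow_one, pow_one]
    | succ j ih =>
      calc (P * M) ^ (j + 1 + 1) = (P * M) ^ (j + 1) * (P * M) := pow_succ _ _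
        _ = (P * M ^ (j + 1) * P) * M := by rw [ih]; noncomm_ring
        _ = P * M ^ (j + 1 + 1) := by rw [hPMj, pow_succ _ (j + 1)]; noncomm_ring
  have hq : ∀ q : Polynomial ℤ, Polynomial.aeval (P * M) q
      = algebraMap ℤ (End ℂ W) (q.coeff 0) * (1 - P) + P * Polynomial.aeval M q := by
    intro q
    induction q using Polynomial.induction_on' with
    | add p q hp hq =>
      rw [map_add, map_add, hp, hq, Polynomial.coeff_add, map_add]
      noncomm_ring
    | monomial n a =>
      rw [Polynomial.aeval_monomial, Polynomial.aeval_monomial]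
      have hcomm : ∀ Y : End ℂ W, Y * algebraMap ℤ (End ℂ W) a = algebraMap ℤ (End ℂ W) a * Y :=
        fun Y => (Algebra.commutes a Y).symm
      cases n with
      | zero =>
        rw [pow_zero, pow_zero, mul_one, Polynomial.coeff_monomial, if_pos rfl, hcomm P]
        noncomm_ring
      | succ n =>
        rw [hpow n, Polynomial.coeff_monomial, if_neg (Nat.succ_ne_zero n), map_zero, zero_mul,
          zero_add, ← mul_assoc, ← mul_assoc, hcomm P]
  refine ⟨Polynomial.X * p, Polynomial.monic_X.mul hp, ?_⟩
  rw [← Polynomial.aeval_def] at hp0 ⊢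
  rw [map_mul, Polynomial.aeval_X, hq p, hp0, mul_zero, add_zero]
  have hcomm : (P * M) * algebraMap ℤ (End ℂ W) (p.coeff 0)
      = algebraMap ℤ (End ℂ W) (p.coeff 0) * (P * M) :=
    (Algebra.commutes (p.coeff 0) (P * M)).symm
  calc P * M * (algebraMap ℤ (End ℂ W) (p.coeff 0) * (1 - P))
      = (P * M * algebraMap ℤ (End ℂ W) (p.coeff 0)) * (1 - P) := by noncomm_ring
    _ = algebraMap ℤ (End ℂ W) (p.coeff 0) * (P * M - P * M * P) := by rw [hcomm]; noncomm_ring
    _ = 0 := by rw [hPM, sub_self, mul_zero]

/-- An idempotent endomorphism of trace zero vanishes. -/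
theorem eq_zero_of_idem_trace (P : End ℂ W) (hP : P * P = P)
    (htr : LinearMap.trace ℂ W P = 0) : P = 0 := by
  have hidem : IsIdempotentElem P := hP
  have h1 : LinearMap.trace ℂ W P = (finrank ℂ (LinearMap.range P) : ℂ) :=
    (LinearMap.IsIdempotentElem.isProj_range P hidem).trace
  rw [htr] at h1
  have h2 : finrank ℂ (LinearMap.range P) = 0 := by exact_mod_cast h1.symm
  have h3 : LinearMap.range P = ⊥ := Submodule.finrank_eq_zero.mp h2
  exact LinearMap.range_eq_bot.mp h3

end lin

section count

variable {G : Type*} [Group G] [Fintype G] {Ω : Type*} [Fintype Ω] [MulAction G Ω]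

omit [Fintype G] in
open Classical in
/-- The number of fixed points as a sum of indicators. -/
theorem card_fixedBy_eq_sum (g : G) :
    (Nat.card (MulAction.fixedBy Ω g) : ℂ) = ∑ x : Ω, if g • x = x then (1 : ℂ) else 0 := by
  rw [Finset.sum_boole]
  congr 1
  rw [← Fintype.card_subtype, ← Nat.card_eq_fintype_card]
  rfl

variable [MulAction.IsPretransitive G Ω]

open Classical in
/-- Summing a class function against the permutation character. -/
theorem sum_fixedBy_mul (a : Ω) (ψ : G → ℂ) (hψ : IsClassFunction G ψ) :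
    ∑ g : G, (Nat.card (MulAction.fixedBy Ω g) : ℂ) * ψ g
      = (Fintype.card Ω : ℂ) * ∑ g : G, if g • a = a then ψ g else 0 := by
  have h1 : ∀ g : G, (Nat.card (MulAction.fixedBy Ω g) : ℂ) * ψ g
      = ∑ x : Ω, if g • x = x then ψ g else 0 := by
    intro g
    rw [card_fixedBy_eq_sum, Finset.sum_mul]
    apply Finset.sum_congr rfl
    intro x _
    split_ifs <;> simp
  simp only [h1]
  rw [Finset.sum_comm]
  have h2 : ∀ x : Ω, (∑ g : G, if g • x = x then ψ g else 0)
      = ∑ g : G, if g • a = a then ψ g else 0 := by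
    intro x
    obtain ⟨s, rfl⟩ := MulAction.exists_smul_eq G a x
    refine (Fintype.sum_equiv (MulAut.conj s).toEquiv (fun g => if g • a = a then ψ g else 0)
      (fun g => if g • s • a = s • a then ψ g else 0) ?_).symm
    intro g
    have e1 : ((MulAut.conj s).toEquiv g) • s • a = s • a ↔ g • a = a := by
      show (s * g * s⁻¹) • s • a = s • a ↔ g • a = a
      rw [mul_smul, inv_smul_smul, mul_smul, smul_left_cancel_iff]
    have e2 : ψ ((MulAut.conj s).toEquiv g) = ψ g := hψ g s
    by_cases h : g • a = a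
    · rw [if_pos h, if_pos (e1.mpr h), e2]
    · rw [if_neg h, if_neg (fun h' => h (e1.mp h'))]
  simp only [h2]
  rw [Finset.sum_const, Finset.card_univ, nsmul_eq_mul]

omit [MulAction.IsPretransitive G Ω] in
open Classical in
/-- Decomposition of a sum over the group along a transversal of the point stabilizer. -/
theorem sum_eq_sum_transversal (a : Ω) (t : Ω → G) (ht : ∀ y, t y • a = y)
    {M : Type*} [AddCommMonoid M] (F : G → M) :
    ∑ g : G, F g = ∑ y : Ω, ∑ h : G, if h • a = a then F (t y * h) else 0 := by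
  have h1 : ∀ y : Ω, (∑ h : G, if h • a = a then F (t y * h) else 0)
      = ∑ g : G, if g • a = y then F g else 0 := by
    intro y
    refine Fintype.sum_equiv (Equiv.mulLeft (t y)) (fun h => if h • a = a then F (t y * h) else 0)
      (fun g => if g • a = y then F g else 0) ?_
    intro h
    have e1 : (Equiv.mulLeft (t y) h) • a = y ↔ h • a = a := by
      show (t y * h) • a = y ↔ h • a = a
      rw [mul_smul]
      constructor
      · intro h'
        have h2 : t y • h • a = t y • a := by rw [h', ht]
        exact smul_left_cancel _ h2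
      · intro h'
        rw [h', ht]
    by_cases h' : h • a = a
    · rw [if_pos h', if_pos (e1.mpr h')]
      rfl
    · rw [if_neg h', if_neg (fun h'' => h' (e1.mp h''))]
  simp only [h1]
  rw [Finset.sum_comm]
  apply Finset.sum_congr rfl
  intro g _
  rw [Finset.sum_ite_eq]
  simp

end count

section rep

variable {G : Type*} [Group G] [Fintype G] {Ω : Type*} [Fintype Ω] [MulAction G Ω]
  [MulAction.IsPretransitive G Ω]

omit [MulAction.IsPretransitive G Ω] [Fintype Ω] in
open Classical in
/-- The number of group elements fixing a point, as a nonzero complex number. -/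
theorem stab_count_ne_zero (a : Ω) : (∑ g : G, if g • a = a then (1 : ℂ) else 0) ≠ 0 := by
  rw [Finset.sum_boole]
  have h : 0 < (Finset.univ.filter (fun g : G => g • a = a)).card :=
    Finset.card_pos.mpr ⟨1, by simp⟩
  exact_mod_cast h.ne'

open Classical in
/-- Integrality of the normalized sum of a character over the elements moving `a` into a set
`O` stable under the stabilizer of `a`. -/
theorem orbit_sum_integral (a : Ω) (O : Set Ω)
    (hO : ∀ h : G, h • a = a → ∀ y, (h • y ∈ O ↔ y ∈ O))
    {W : Type*} [AddCommGroup W] [Module ℂ W] [FiniteDimensional ℂ W]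
    (ρ : Representation ℂ G W) :
    ∃ α : ℂ, IsIntegral ℤ α ∧
      (∑ g : G, if g • a ∈ O then ρ.character g⁻¹ else 0)
        = (∑ g : G, if g • a = a then (1 : ℂ) else 0) * α ∧
      ((∑ g : G, if g • a = a then ρ.character g else 0) = 0 → α = 0) := by
  obtain ⟨t, ht⟩ : ∃ t : Ω → G, ∀ y, t y • a = y :=
    ⟨fun y => Classical.choose (MulAction.exists_smul_eq G a y),
      fun y => Classical.choose_spec (MulAction.exists_smul_eq G a y)⟩
  obtain ⟨c, hc⟩ : ∃ c : ℂ, c = ∑ g : G, if g • a = a then (1 : ℂ) else 0 := ⟨_, rfl⟩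
  have hc0 : c ≠ 0 := by rw [hc]; exact stab_count_ne_zero a
  obtain ⟨S, hS⟩ : ∃ S : End ℂ W, S = ∑ g : G, if g • a = a then ρ g else 0 := ⟨_, rfl⟩
  obtain ⟨X, hX⟩ : ∃ X : End ℂ W, X = ∑ g : G, if g • a ∈ O then ρ g⁻¹ else 0 := ⟨_, rfl⟩
  obtain ⟨M', hM'⟩ : ∃ M' : End ℂ W, M' = ∑ y : Ω, if y ∈ O then ρ (t y)⁻¹ else 0 := ⟨_, rfl⟩
  have hinv : ∀ g : G, g⁻¹ • a = a ↔ g • a = a := by
    intro g
    constructor
    · intro h
      have h1 : g • g⁻¹ • a = g • a := by rw [h]
      rw [smul_inv_smul] at h1
      exact h1.symm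
    · intro h
      rw [inv_smul_eq_iff, h]
  have hS' : (∑ g : G, if g • a = a then ρ g⁻¹ else 0) = S := by
    rw [hS]
    refine Fintype.sum_equiv (Equiv.inv G) (fun g => if g • a = a then ρ g⁻¹ else 0)
      (fun g => if g • a = a then ρ g else 0) ?_
    intro g
    have e : (Equiv.inv G g) • a = a ↔ g • a = a := hinv g
    by_cases hg : g • a = a
    · rw [if_pos hg, if_pos (e.mpr hg)]
      rfl
    · rw [if_neg hg, if_neg (fun h' => hg (e.mp h'))]
  have hXSM : X = S * M' := by
    rw [hX, sum_eq_sum_transversal a t ht, hM', Finset.mul_sum]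
    apply Finset.sum_congr rfl
    intro y _
    rw [← hS', Finset.sum_mul]
    apply Finset.sum_congr rfl
    intro h _
    by_cases hh : h • a = a
    · rw [if_pos hh, if_pos hh]
      have e1 : (t y * h) • a ∈ O ↔ y ∈ O := by rw [mul_smul, hh, ht]
      by_cases hy : y ∈ O
      · rw [if_pos hy, if_pos (e1.mpr hy), mul_inv_rev, map_mul]
      · rw [if_neg hy, if_neg (fun h' => hy (e1.mp h')), mul_zero]
    · rw [if_neg hh, if_neg hh, zero_mul]
  have hSρ : ∀ h : G, h • a = a → ρ h * S = S := by
    intro h hh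
    rw [hS, Finset.mul_sum]
    refine Fintype.sum_equiv (Equiv.mulLeft h) (fun g => ρ h * (if g • a = a then ρ g else 0))
      (fun g => if g • a = a then ρ g else 0) ?_
    intro g
    have e : (Equiv.mulLeft h g) • a = a ↔ g • a = a := by
      show (h * g) • a = a ↔ g • a = a
      rw [mul_smul]
      constructor
      · intro h'
        have h2 : h • g • a = h • a := by rw [h', hh]
        exact smul_left_cancel _ h2
      · intro h'
        rw [h', hh]
    by_cases hg : g • a = a
    · rw [if_pos hg, if_pos (e.mpr hg)]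
      show ρ h * ρ g = ρ (h * g)
      rw [map_mul]
    · rw [if_neg hg, if_neg (fun h' => hg (e.mp h')), mul_zero]
  have hXρ : ∀ h : G, h • a = a → X * ρ h = X := by
    intro h hh
    rw [hX, Finset.sum_mul]
    refine Fintype.sum_equiv (Equiv.mulLeft h⁻¹)
      (fun g => (if g • a ∈ O then ρ g⁻¹ else 0) * ρ h)
      (fun g => if g • a ∈ O then ρ g⁻¹ else 0) ?_
    intro g
    have e : (Equiv.mulLeft h⁻¹ g) • a ∈ O ↔ g • a ∈ O := by
      show (h⁻¹ * g) • a ∈ O ↔ g • a ∈ O
      rw [mul_smul]
      exact hO h⁻¹ ((hinv h).mpr hh) (g • a)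
    by_cases hg : g • a ∈ O
    · rw [if_pos hg, if_pos (e.mpr hg)]
      show ρ g⁻¹ * ρ h = ρ (h⁻¹ * g)⁻¹
      rw [← map_mul, mul_inv_rev, inv_inv]
    · rw [if_neg hg, if_neg (fun h' => hg (e.mp h')), zero_mul]
  have hSS : S * S = c • S := by
    have h1 : S * S = ∑ g : G, (if g • a = a then ρ g else 0) * S := by
      rw [← Finset.sum_mul, ← hS]
    rw [h1, hc, Finset.sum_smul]
    apply Finset.sum_congr rfl
    intro g _
    by_cases hg : g • a = a
    · rw [if_pos hg, if_pos hg, one_smul, hSρ g hg]
    · rw [if_neg hg, if_neg hg, zero_smul, zero_mul]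
  have hXS : X * S = c • X := by
    have h1 : X * S = ∑ g : G, X * (if g • a = a then ρ g else 0) := by
      rw [← Finset.mul_sum, ← hS]
    rw [h1, hc, Finset.sum_smul]
    apply Finset.sum_congr rfl
    intro g _
    by_cases hg : g • a = a
    · rw [if_pos hg, if_pos hg, one_smul, hXρ g hg]
    · rw [if_neg hg, if_neg hg, zero_smul, mul_zero]
  obtain ⟨P, hPdef⟩ : ∃ P : End ℂ W, P = c⁻¹ • S := ⟨_, rfl⟩
  have hPP : P * P = P := by
    rw [hPdef, smul_mul_smul_comm, hSS, smul_smul]
    congr 1
    field_simp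
  have hPM : P * M' = c⁻¹ • X := by
    rw [hPdef, smul_mul_assoc, ← hXSM]
  have hPMP : P * M' * P = P * M' := by
    rw [hPM, hPdef, smul_mul_smul_comm, hXS, smul_smul]
    congr 1
    field_simp
  have hMint : IsIntegral ℤ M' := by
    have h1 : M' = ∑ g ∈ (Finset.univ.filter (fun y : Ω => y ∈ O)).image (fun y => (t y)⁻¹),
        ρ g := by
      rw [hM', Finset.sum_image]
      · rw [Finset.sum_filter]
      · intro y _ y' _ hyy
        have h2 : t y = t y' := inv_injective hyy
        rw [← ht y, ← ht y', h2]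
    rw [h1]
    exact classSum_isIntegral ρ _
  refine ⟨LinearMap.trace ℂ W (P * M'), trace_proj_mul_isIntegral P M' hPP hPMP hMint, ?_, ?_⟩
  · have h1 : (∑ g : G, if g • a ∈ O then ρ.character g⁻¹ else 0) = LinearMap.trace ℂ W X := by
      rw [hX, map_sum]
      apply Finset.sum_congr rfl
      intro g _
      by_cases hg : g • a ∈ O
      · rw [if_pos hg, if_pos hg]
        rfl
      · rw [if_neg hg, if_neg hg, map_zero]
    rw [h1, ← hc, hPM, map_smul, smul_eq_mul, ← mul_assoc, mul_inv_cancel₀ hc0, one_mul]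
  · intro h0
    have h1 : LinearMap.trace ℂ W S = 0 := by
      rw [hS, map_sum, ← h0]
      apply Finset.sum_congr rfl
      intro g _
      by_cases hg : g • a = a
      · rw [if_pos hg, if_pos hg]
        rfl
      · rw [if_neg hg, if_neg hg, map_zero]
    have h2 : P = 0 := by
      apply eq_zero_of_idem_trace P hPP
      rw [hPdef, map_smul, h1, smul_zero]
    rw [h2, zero_mul, map_zero]

omit [Fintype Ω] [MulAction.IsPretransitive G Ω] in
open Classical in
/-- Column orthogonality summed over the elements moving `a` into a set not containing `a`. -/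
theorem sum_irr_deg_orbit (a : Ω) (O : Set Ω) (haO : a ∉ O) [Fintype (IrrCharacter G)] :
    ∑ χ : IrrCharacter G, (χ : G → ℂ) 1 * ∑ g : G, (if g • a ∈ O then (χ : G → ℂ) g⁻¹ else 0)
      = 0 := by
  simp only [Finset.mul_sum]
  rw [Finset.sum_comm]
  apply Finset.sum_eq_zero
  intro g _
  by_cases hg : g • a ∈ O
  · simp only [if_pos hg]
    have hg1 : g ≠ 1 := by
      rintro rfl
      rw [one_smul] at hg
      exact haO hg
    have h1 := column_orthogonality (1 : G) g
    rw [colFun_of_not_isConj (fun h => hg1 (isConj_one_right.mp h))] at h1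
    rw [← h1]
    apply Finset.sum_congr rfl
    intro χ _
    obtain ⟨n, ρ, _, hχ⟩ := χ.2
    rw [← hχ, char_inv]
  · simp only [if_neg hg, mul_zero, Finset.sum_const_zero]

open Classical in
/-- The number of group elements moving `a` into `O`. -/
theorem count_orbit (a : Ω) (O : Set Ω) :
    (∑ g : G, if g • a ∈ O then (1 : ℂ) else 0)
      = (∑ g : G, if g • a = a then (1 : ℂ) else 0) * (Nat.card O : ℂ) := by
  obtain ⟨t, ht⟩ : ∃ t : Ω → G, ∀ y, t y • a = y :=
    ⟨fun y => Classical.choose (MulAction.exists_smul_eq G a y),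
      fun y => Classical.choose_spec (MulAction.exists_smul_eq G a y)⟩
  rw [sum_eq_sum_transversal a t ht]
  have h1 : ∀ y : Ω, (∑ h : G, if h • a = a then (if (t y * h) • a ∈ O then (1 : ℂ) else 0) else 0)
      = (∑ g : G, if g • a = a then (1 : ℂ) else 0) * (if y ∈ O then (1 : ℂ) else 0) := by
    intro y
    rw [Finset.sum_mul]
    apply Finset.sum_congr rfl
    intro h _
    by_cases hh : h • a = a
    · rw [if_pos hh, if_pos hh, one_mul]
      have e1 : (t y * h) • a ∈ O ↔ y ∈ O := by rw [mul_smul, hh, ht]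
      by_cases hy : y ∈ O
      · rw [if_pos hy, if_pos (e1.mpr hy)]
      · rw [if_neg hy, if_neg (fun h' => hy (e1.mp h'))]
    · rw [if_neg hh, if_neg hh, zero_mul]
  simp only [h1]
  rw [← Finset.mul_sum]
  congr 1
  rw [Finset.sum_boole]
  congr 1
  rw [← Fintype.card_subtype, ← Nat.card_eq_fintype_card]

open Classical in
/-- The inner product of the permutation character with a class function. -/
theorem classInner_perm (a : Ω) (χ : G → ℂ) (hχ : IsClassFunction G χ) :
    classInner (fun g : G => (Nat.card (MulAction.fixedBy Ω g) : ℂ)) χ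
      = (Nat.card G : ℂ)⁻¹ * ((Fintype.card Ω : ℂ)
          * conj (∑ g : G, if g • a = a then χ g else 0)) := by
  unfold classInner
  congr 1
  rw [sum_fixedBy_mul a (fun g => conj (χ g)) (fun g h => by
    show conj (χ (h * g * h⁻¹)) = conj (χ g)
    rw [hχ g h])]
  congr 1
  rw [map_sum]
  apply Finset.sum_congr rfl
  intro g _
  by_cases hg : g • a = a
  · rw [if_pos hg, if_pos hg]
  · rw [if_neg hg, if_neg hg, map_zero]

end rep

end Cfsg.Agent.Lib.Helper7.PermChar
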