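import Mathlib
import Cfsg.Prelude.Def_Characters
import Cfsg.Prelude.Def_Perm
import Cfsg.Agent.Lib.Helper7.PermChar
import Cfsg.Agent.Lib.Helper20.OrbitCount

/-!
The permutation character of a transitive action: it is the character of the permutation
module, its inner product with itself is the rank, and the numerical data (multiplicities,
degrees, suborbit sizes) as natural numbers.
-/

set_option autoImplicit false

namespace Cfsg.Agent.Lib.Helper7.PermChar

open Cfsg Cfsg.Agent.Lib.Helper2 Module
open scoped ComplexConjugate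

section perm

variable {G : Type*} [Group G] [Fintype G] {Ω : Type*} [Fintype Ω] [MulAction G Ω]

omit [Fintype G] in
/-- The character of the permutation module counts fixed points. -/
theorem perm_character (g : G) :
    (Cfsg.permRep ℂ G Ω).character g = (Nat.card (MulAction.fixedBy Ω g) : ℂ) := by
  classical
  rw [card_fixedBy_eq_sum]
  unfold Representation.character
  rw [LinearMap.trace_eq_matrix_trace ℂ (Pi.basisFun ℂ Ω), Matrix.trace]
  apply Finset.sum_congr rfl
  intro x _
  rw [Matrix.diag_apply, LinearMap.toMatrix_apply, Pi.basisFun_apply, Pi.basisFun_repr]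
  show (Pi.single x (1 : ℂ) : Ω → ℂ) (g⁻¹ • x) = _
  rw [Pi.single_apply]
  have e : g⁻¹ • x = x ↔ g • x = x := by
    constructor
    · intro h
      have h1 : g • g⁻¹ • x = g • x := by rw [h]
      rw [smul_inv_smul] at h1
      exact h1.symm
    · intro h
      rw [inv_smul_eq_iff, h]
  by_cases hx : g • x = x
  · rw [if_pos hx, if_pos (e.mpr hx)]
  · rw [if_neg hx, if_neg (fun h' => hx (e.mp h'))]

omit [Fintype G] in
theorem perm_isCharacter :
    IsCharacter G (fun g : G => (Nat.card (MulAction.fixedBy Ω g) : ℂ)) := by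
  have h := isCharacter_of_rep (Cfsg.permRep ℂ G Ω)
  have e : (Cfsg.permRep ℂ G Ω).character
      = fun g : G => (Nat.card (MulAction.fixedBy Ω g) : ℂ) := funext perm_character
  rw [e] at h
  exact h

omit [Fintype G] in
theorem perm_apply_one :
    (Nat.card (MulAction.fixedBy Ω (1 : G)) : ℂ) = (Fintype.card Ω : ℂ) := by
  classical
  rw [card_fixedBy_eq_sum]
  simp

variable [MulAction.IsPretransitive G Ω]

open Classical in
/-- Orbit-stabilizer, in indicator form. -/
theorem card_eq_mul (a : Ω) :
    (Nat.card G : ℂ) = (Fintype.card Ω : ℂ) * ∑ g : G, if g • a = a then (1 : ℂ) else 0 := by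
  have h := count_orbit (G := G) a (Set.univ : Set Ω)
  have h2 : (Nat.card (Set.univ : Set Ω) : ℂ) = (Fintype.card Ω : ℂ) := by
    rw [Nat.card_congr (Equiv.Set.univ Ω), Nat.card_eq_fintype_card]
  simp only [Set.mem_univ, if_true, Finset.sum_const, Finset.card_univ, nsmul_eq_mul,
    mul_one] at h
  rw [h2] at h
  rw [Nat.card_eq_fintype_card, h, mul_comm]

theorem classInner_perm_one (a : Ω) :
    classInner (fun g : G => (Nat.card (MulAction.fixedBy Ω g) : ℂ)) (fun _ => 1) = 1 := by
  classical
  rw [classInner_perm a (fun _ => 1) (fun _ _ => rfl)]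
  have h1 : conj (∑ g : G, if g • a = a then (1 : ℂ) else 0)
      = ∑ g : G, if g • a = a then (1 : ℂ) else 0 := by
    rw [Finset.sum_boole, Complex.conj_natCast]
  rw [h1, ← card_eq_mul a, inv_mul_cancel₀ (card_ne_zero_complex G)]

open Classical in
omit [Fintype Ω] [MulAction.IsPretransitive G Ω] in
/-- Sums over the stabilizer as indicator sums over the group. -/
theorem sum_stab_eq (a : Ω) [Fintype (MulAction.stabilizer G a)] (F : G → ℂ) :
    ∑ h : MulAction.stabilizer G a, F h = ∑ g : G, if g • a = a then F g else 0 := by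
  rw [← Finset.sum_filter]
  exact (Finset.sum_subtype (Finset.univ.filter (fun g : G => g • a = a))
    (fun g => by simp [MulAction.mem_stabilizer_iff]) F).symm

/-- The inner product of the permutation character with itself is the rank. -/
theorem classInner_perm_self (a : Ω) :
    classInner (fun g : G => (Nat.card (MulAction.fixedBy Ω g) : ℂ))
        (fun g : G => (Nat.card (MulAction.fixedBy Ω g) : ℂ))
      = (Nat.card (MulAction.orbitRel.Quotient (MulAction.stabilizer G a) Ω) : ℂ) := by
  classical
  have hcf := isClassFunction_of_isCharacter (perm_isCharacter (G := G) (Ω := Ω))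
  rw [classInner_perm a _ hcf]
  have hB := Cfsg.Agent.Lib.Helper20.OrbitCount.sum_fx (G := MulAction.stabilizer G a) Ω
  have h1 : (∑ g : G, if g • a = a then (Nat.card (MulAction.fixedBy Ω g) : ℂ) else 0)
      = ((∑ h : MulAction.stabilizer G a,
          Cfsg.Agent.Lib.Helper20.OrbitCount.fx Ω h : ℕ) : ℂ) := by
    rw [← sum_stab_eq a (fun g => (Nat.card (MulAction.fixedBy Ω g) : ℂ)), Nat.cast_sum]
    rfl
  have h2 : (Nat.card (MulAction.stabilizer G a) : ℂ)
      = ∑ g : G, if g • a = a then (1 : ℂ) else 0 := by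
    rw [← sum_stab_eq a (fun _ => (1 : ℂ))]
    simp [Nat.card_eq_fintype_card]
  rw [h1, hB, Complex.conj_natCast, Nat.cast_mul, h2, card_eq_mul a, mul_inv]
  have hΩ : (Fintype.card Ω : ℂ) ≠ 0 := by
    have : Nonempty Ω := ⟨a⟩
    exact_mod_cast Fintype.card_ne_zero (α := Ω)
  have hc := stab_count_ne_zero (G := G) a
  have hQ : Nat.card (Quotient (MulAction.orbitRel (MulAction.stabilizer G a) Ω))
      = Nat.card (MulAction.orbitRel.Quotient (MulAction.stabilizer G a) Ω) := rfl
  rw [hQ]
  field_simp

/-- The numerical data of the permutation character. -/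
theorem perm_data (a : Ω) [Fintype (IrrCharacter G)] :
    ∃ (μ d : IrrCharacter G → ℕ),
      (∀ χ : IrrCharacter G,
        classInner (fun g : G => (Nat.card (MulAction.fixedBy Ω g) : ℂ)) (χ : G → ℂ) = μ χ) ∧
      (∀ χ : IrrCharacter G, (χ : G → ℂ) 1 = d χ) ∧ (∀ χ, 0 < d χ) ∧
      (∀ χ : IrrCharacter G, (χ : G → ℂ) = (fun _ => 1) → μ χ = 1 ∧ d χ = 1) ∧
      Fintype.card Ω = ∑ χ, μ χ * d χ ∧
      Nat.card (MulAction.orbitRel.Quotient (MulAction.stabilizer G a) Ω) = ∑ χ, μ χ ^ 2 := by
  have hπ := perm_isCharacter (G := G) (Ω := Ω)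
  have hμ : ∀ χ : IrrCharacter G, ∃ n : ℕ,
      classInner (fun g : G => (Nat.card (MulAction.fixedBy Ω g) : ℂ)) (χ : G → ℂ) = n :=
    fun χ => classInner_isCharacter_nat hπ (isCharacter_of_isIrrCharacter χ.2)
  choose μ hμ using hμ
  have hd : ∀ χ : IrrCharacter G, ∃ n : ℕ, 0 < n ∧ (χ : G → ℂ) 1 = n :=
    fun χ => irr_apply_one χ.2
  choose d hd0 hd using hd
  refine ⟨μ, d, hμ, hd, hd0, ?_, ?_, ?_⟩
  · intro χ hχ
    constructor
    · have h1 := hμ χ
      rw [hχ, classInner_perm_one a] at h1
      exact_mod_cast h1.symm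
    · have h1 := hd χ
      rw [hχ] at h1
      have h2 : ((d χ : ℕ) : ℂ) = 1 := h1.symm
      exact_mod_cast h2
  · have h1 := char_apply_one_eq_sum hπ
    simp only [hμ, hd] at h1
    rw [perm_apply_one] at h1
    exact_mod_cast h1
  · have h1 := classInner_eq_sum (fun g : G => (Nat.card (MulAction.fixedBy Ω g) : ℂ))
      (fun g : G => (Nat.card (MulAction.fixedBy Ω g) : ℂ)) (isClassFunction_of_isCharacter hπ)
    rw [classInner_perm_self a] at h1
    simp only [hμ, Complex.conj_natCast] at h1
    have h2 : (Nat.card (MulAction.orbitRel.Quotient (MulAction.stabilizer G a) Ω) : ℂ)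
        = ((∑ χ, μ χ ^ 2 : ℕ) : ℂ) := by
      rw [h1, Nat.cast_sum]
      apply Finset.sum_congr rfl
      intro χ _
      push_cast
      ring
    exact_mod_cast h2

omit [Fintype G] [MulAction.IsPretransitive G Ω] in
/-- The suborbits partition the set. -/
theorem orbit_data (a : Ω)
    [Fintype (MulAction.orbitRel.Quotient (MulAction.stabilizer G a) Ω)] :
    Fintype.card Ω
      = ∑ ω : MulAction.orbitRel.Quotient (MulAction.stabilizer G a) Ω, Nat.card ω.orbit := by
  rw [← Nat.card_eq_fintype_card,
    Nat.card_congr (MulAction.selfEquivSigmaOrbits' (MulAction.stabilizer G a) Ω), Nat.card_sigma]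

end perm

end Cfsg.Agent.Lib.Helper7.PermChar
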