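import Mathlib
import Cfsg.Prelude.Def_ClassicalGeometry

set_option autoImplicit false

namespace Cfsg.Agent.Lib.Helper7

open Matrix

/-- Determinant of a rank one perturbation of the identity. -/
theorem det_one_add_vecMulVec {ι : Type} [Fintype ι] [DecidableEq ι] {F : Type*} [CommRing F]
    (u w : ι → F) : (1 + Matrix.vecMulVec u w).det = 1 + w ⬝ᵥ u := by
  rw [Matrix.vecMulVec_eq Unit, Matrix.det_one_add_replicateCol_mul_replicateRow]

/-- The polar vector computes the polar form. -/
theorem polarVec_dotProduct {ι : Type} [Fintype ι] [DecidableEq ι] {F : Type*} [CommRing F]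
    (Q : QuadraticForm F (ι → F)) (v x : ι → F) :
    Cfsg.polarVec ⇑Q v ⬝ᵥ x = QuadraticMap.polar ⇑Q v x := by
  have hx : x = ∑ j, x j • (Pi.single j (1 : F) : ι → F) := by
    ext i
    simp [Finset.sum_apply, Pi.single_apply]
  have hlin : QuadraticMap.polar ⇑Q v x = (QuadraticMap.polarBilin Q v) x := rfl
  rw [hlin]
  conv_rhs => rw [hx]
  rw [map_sum]
  simp only [dotProduct, Cfsg.polarVec, map_smul, smul_eq_mul]
  apply Finset.sum_congr rfl
  intro j _
  rw [mul_comm]
  rfl

theorem polarVec_dotProduct' {ι : Type} [Fintype ι] [DecidableEq ι] {F : Type*} [CommRing F]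
    (Q : QuadraticForm F (ι → F)) (v x : ι → F) :
    x ⬝ᵥ Cfsg.polarVec ⇑Q v = QuadraticMap.polar ⇑Q v x := by
  rw [dotProduct_comm, polarVec_dotProduct]

/-- The action of the reflection matrix. -/
theorem reflectionMatrix_mulVec {ι : Type} [Fintype ι] [DecidableEq ι] {F : Type*} [Field F]
    (Q : QuadraticForm F (ι → F)) (v x : ι → F) :
    (Cfsg.reflectionMatrix ⇑Q v).mulVec x = x - ((Q v)⁻¹ * QuadraticMap.polar ⇑Q v x) • v := by
  rw [Cfsg.reflectionMatrix, Matrix.sub_mulVec, Matrix.one_mulVec, Matrix.smul_mulVec]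
  congr 1
  ext i
  simp only [Pi.smul_apply, Matrix.mulVec, Matrix.vecMulVec_apply, smul_eq_mul]
  rw [← polarVec_dotProduct Q v x]
  simp only [dotProduct, Finset.mul_sum, Finset.sum_mul]
  apply Finset.sum_congr rfl
  intro j _
  ring

/-- The action of the Siegel matrix. -/
theorem siegelMatrix_mulVec {ι : Type} [Fintype ι] [DecidableEq ι] {F : Type*} [Field F]
    (Q : QuadraticForm F (ι → F)) (u v : ι → F) (c : F) (x : ι → F) :
    (Cfsg.siegelMatrix ⇑Q u v c).mulVec x =
      x + (c * QuadraticMap.polar ⇑Q u x) • v - (c * QuadraticMap.polar ⇑Q v x) • u := by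
  rw [Cfsg.siegelMatrix, Matrix.add_mulVec, Matrix.one_mulVec, Matrix.smul_mulVec,
    Matrix.sub_mulVec, add_sub_assoc]
  congr 1
  ext i
  simp only [Pi.smul_apply, Pi.sub_apply, Matrix.mulVec, Matrix.vecMulVec_apply, smul_eq_mul]
  rw [← polarVec_dotProduct Q u x, ← polarVec_dotProduct Q v x]
  simp only [dotProduct, Finset.mul_sum, Finset.sum_mul, ← Finset.sum_sub_distrib]
  apply Finset.sum_congr rfl
  intro j _
  ring

/-- Value of a quadratic form on `x + a • v`. -/
theorem map_add_smul {ι : Type} {F : Type*} [Field F]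
    (Q : QuadraticForm F (ι → F)) (x v : ι → F) (a : F) :
    Q (x + a • v) = Q x + a * a * Q v + a * QuadraticMap.polar ⇑Q x v := by
  rw [QuadraticMap.map_add (⇑Q) x (a • v), QuadraticMap.map_smul, QuadraticMap.polar_smul_right]
  simp only [smul_eq_mul]

end Cfsg.Agent.Lib.Helper7
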